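import Cfsg.Agent.H21.Ja6

/-! An elementary abelian subgroup of order `2 ^ 10` whose normalizer is not in the normalizer of the `2 ^ 11`. -/

set_option autoImplicit false
set_option maxRecDepth 100000
set_option linter.style.haveILetI false

namespace Cfsg.Agent.LL.U6

open Cfsg Cfsg.Agent.H16 Cfsg.Agent.H3 Cfsg.Agent.H10 MulAction Mdl Subgroup
open scoped commutatorElement Pointwise symmDiff

def EEb : List ℕ := [(nat_lit 0x8000000040000000200000001000000008000000040000000200000001000000008000000040000000200000001),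
  (nat_lit 0x50c00000e8c00000bb4000005b80000070000000040000003180000033600000d1a00000e2e0000001c00000001),
  (nat_lit 0x3400000040000000b870000094b0000014c00000acc0000000d00000010000001e9000002ee0000030900000327),
  (nat_lit 0xe4c00000e8c0000023300000df3000006cc00000acc000003350000033600000cfb00000cc40000031700000327),
  (nat_lit 0x5500000c660000020000000df300000415000004e600000554000009970000000800000cc400000545000009b5),
  (nat_lit 0xd59000006ea00000bb40000094b00000395000004e60000066c00000ab100000d1a000002ee0000055b000009b5),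
  (nat_lit 0xb1500000c6600000b87000005b8000005d900000e6a0000057900000997000001e900000e2e0000064e00000a93),
  (nat_lit 0x619000006ea00000233000001000000025900000e6a0000064100000ab100000cfb000000040000065000000a93)]
noncomputable def eeb (i : ℕ) : ℕ := nth o.one EEb i
def yyb : ℕ := (nat_lit 0x5ba00000a40000007c400000877000006f800000c5b00000eac000000290000011b00000dd600000e23000006ea)
def yyb' : ℕ := (nat_lit 0xce60000032700000e630000090c000003e50000068500000995000009eb000008da000003280000096a0000015f)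
def ytab : List ℕ := [0, 2, 7, 5, 6, 4, 1, 3]

theorem EEb_top : M.InL ⊤ EEb := (prL_top (S := EEb.map fun a => (a, a)) (by decide +kernel)).inL.sub (by decide +kernel)
theorem R_eeb (i : ℕ) : M.R (eeb i) (el (eeb i)) ∧ el (eeb i) ∈ NJ ∧ el (eeb i) ∈ J0 :=
  ⟨(R_in (EEb_top.nth i)).1, (R_in ((NJ_ch.inL EEb_top (by decide +kernel)).nth i)).2,
    (R_in ((J0_ch.inL EEb_top (by decide +kernel)).nth i)).2⟩
theorem eeb_xor {e f : ℕ} (he : e < 8) (hf : f < 8) : el (eeb e) * el (eeb f) = el (eeb (e ^^^ f)) :=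
  R_fun (M.R_mul (R_eeb e).1 (R_eeb f).1) (Nat.eq_of_beq_eq_true (allB_iff.mp (allB_iff.mp (by decide +kernel : allB 8
    (fun e => allB 8 fun f => Nat.beq (eeb (Nat.xor e f)) (o.mul (eeb e) (eeb f))) = true) e he) f hf) ▸ (R_eeb _).1)
theorem eeb_zero : el (eeb 0) = 1 := isOne_spec (R_eeb 0).1 (by decide +kernel)

/-- a subgroup of order `8` -/
def E8b : Subgroup Γ where
  carrier := {g | ∃ i < 8, el (eeb i) = g}
  one_mem' := ⟨0, by norm_num, eeb_zero⟩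
  mul_mem' := by
    rintro _ _ ⟨i, hi, rfl⟩ ⟨j, hj, rfl⟩
    exact ⟨_, Nat.xor_lt_two_pow (n := 3) hi hj, (eeb_xor hi hj).symm⟩
  inv_mem' := by
    rintro _ ⟨i, hi, rfl⟩
    exact ⟨i, hi, (inv_eq_of_mul_eq_one_left (by rw [eeb_xor hi hi, Nat.xor_self, eeb_zero])).symm⟩

theorem E8b_sq {e : Γ} (h : e ∈ E8b) : e * e = 1 := by
  obtain ⟨i, hi, rfl⟩ := h
  rw [eeb_xor hi hi, Nat.xor_self, eeb_zero]
theorem E8b_NJ : E8b ≤ NJ := by rintro _ ⟨i, -, rfl⟩; exact (R_eeb i).2.1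
theorem E8b_J0 : E8b ≤ J0 := by rintro _ ⟨i, -, rfl⟩; exact (R_eeb i).2.2

theorem E8b_card : Nat.card E8b = 8 := by
  have h : (E8b : Set Γ) = (fun i => el (eeb i)) '' (Finset.range 8 : Set ℕ) := Set.ext fun g =>
    ⟨fun ⟨i, hi, e⟩ => ⟨i, by simpa using hi, e⟩, fun ⟨i, hi, e⟩ => ⟨i, by simpa using hi, e⟩⟩
  change (E8b : Set Γ).ncard = 8
  rw [h, Set.InjOn.ncard_image, Set.ncard_coe_finset, Finset.card_range]
  intro i hi j hj e
  by_contra n
  exact ne_of_neB hv hpt (R_eeb i).1 (R_eeb j).1 ((by decide +kernel : ∀ i < 8, ∀ j < 8, i ≠ j →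
    neB o pts (eeb i) (eeb j) = true) i (by simpa using hi) j (by simpa using hj) n) e

theorem E8b_fix {x : ℕ} (hx : x < 4096) :
    (∀ e ∈ E8b, e (vc x) = vc x) ↔ (allB 8 fun i => Nat.beq (mul12Ap (eeb i) x) x) = true := by
  simp only [allB_iff, Nat.beq_eq]
  refine ⟨fun h i hi => vc_inj (R_ap (R_eeb i).1 hx).1 hx ((R_ap (R_eeb i).1 hx).2.symm.trans (h _ ⟨i, hi, rfl⟩)), ?_⟩
  rintro h _ ⟨i, hi, rfl⟩
  rw [(R_ap (R_eeb i).1 hx).2, h i hi]

theorem yyb_ok : ∃ g ∈ J0, g ∈ normalizer (E8b : Set Γ) ∧ g ∉ normalizer (F16 : Set Γ) := by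
  obtain ⟨g, hg, r, r'⟩ := J0_ch.prL (prL_top (S := [(yyb, yyb')]) (by decide +kernel)) (by decide +kernel) _ List.mem_cons_self
  haveI : Finite E8b := Nat.finite_of_card_ne_zero (by rw [E8b_card]; norm_num)
  refine ⟨g, hg, mem_normalizer_of_conj_mem ?_, fun h => ?_⟩
  · rintro _ ⟨i, hi, rfl⟩
    have := (by decide +kernel : ∀ i < 8, nth 0 ytab i < 8 ∧ cjM o yyb (eeb i) (eeb (nth 0 ytab i)) = true) i hi
    exact ⟨_, this.1, (cjM_spec r (R_eeb i).1 (R_eeb _).1 this.2).symm⟩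
  · exact absurd (F16_ch.siftC (M.R_mul (M.R_mul r (R_fe 1).1) r') ((mem_normalizer_iff.mp h _).mp (R_fe 1).2))
      (by decide +kernel)

theorem eeb1_not : el (eeb 1) ∉ F16 := fun h =>
  let ⟨i, hi, e⟩ := fe_surj h
  ne_of_neB hv hpt (R_fe i).1 (R_eeb 1).1 (allB_iff.mp (by decide +kernel : allB 16 (fun i =>
    neB o pts (fe i) (eeb 1)) = true) i hi) e

variable {G : Type*} [Group G] {z : G} {Q : Subgroup G} {ρ : centralizer ({z} : Set G) →* Γ} {p : G → V6}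

namespace FT
variable (m : FT z Q ρ p)
include m

/-- the preimage of the fixed space of `E8b` -/
def B0b : Subgroup G where
  carrier := {x | x ∈ Q ∧ ∀ e ∈ E8b, e (p x) = p x}
  one_mem' := ⟨one_mem _, fun e he => by
    rw [(m.zero (one_mem _)).mpr (one_mem _)]; simpa using GU_add (J0_GU (E8b_J0 he)) 0 0⟩
  mul_mem' := fun ha hb => ⟨mul_mem ha.1 hb.1, fun e he => by
    rw [m.mul ha.1 hb.1, GU_add (J0_GU (E8b_J0 he)), ha.2 e he, hb.2 e he]⟩
  inv_mem' := fun ha => ⟨inv_mem ha.1, m.p_inv ha.1 ▸ ha.2⟩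

theorem B0b_le : m.B0b ≤ Q := fun _ h => h.1
theorem z_B0b : z ∈ m.B0b := ⟨m.lx.mem, by rw [m.p_z, ← (m.zero (one_mem _)).mpr (one_mem _)]; exact m.B0b.one_mem.2⟩

theorem card_B0b : Nat.card m.B0b = 2 ^ 7 := by
  rw [m.card_p' m.B0b_le m.z_B0b, ncard_eq_cnt (X := p '' m.B0b) (f := fun x => allB 8 fun i => Nat.beq (mul12Ap (eeb i) x) x)
    fun x hx => Iff.trans ⟨fun ⟨y, hy, e⟩ => e ▸ hy.2, fun h =>
    let ⟨y, hy, e⟩ := m.surj (vc x); ⟨y, ⟨hy, e ▸ h⟩, e⟩⟩ (E8b_fix hx)]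
  decide +kernel

theorem B0b_sq {x : G} (h : x ∈ m.B0b) : x * x = 1 := by
  obtain ⟨y, hy, e⟩ := en_all (fun x => impB (allB 8 fun i => Nat.beq (mul12Ap (eeb i) x) x) (Nat.beq (herm4 6 x x) 0))
    (by decide +kernel) (p x)
  obtain ⟨h1, h2⟩ := P_iff.mp hy
  exact (m.sq h.1).mpr (h2 ▸ hf_of (Nat.eq_of_beq_eq_true (impB_iff.mp e ((E8b_fix h1).mp (h2 ▸ h.2)))))

theorem B0b_cent : m.B0b ≤ centralizer (m.B0b : Set G) := fun _ hx _ hy => H11.comm_of_sq_eq_one (fun _ => m.B0b_sq) hy hx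

theorem B0b_conj {h : centralizer ({z} : Set G)} (hn : ρ h ∈ normalizer (E8b : Set Γ)) {x : G} (hx : x ∈ m.B0b) :
    h * x * (h : G)⁻¹ ∈ m.B0b := ⟨m.conj_mem h hx.1, fun e he => by
  have := hx.2 _ ((mem_normalizer_iff.mp (inv_mem hn) e).mp he)
  rw [m.act h hx.1]
  simp only [inv_inv, Equiv.Perm.mul_apply] at this
  exact (Equiv.Perm.inv_eq_iff_eq.mp this)⟩

/-- the subgroup of order `2 ^ 10` -/
noncomputable def BBb : Subgroup (centralizer ({z} : Set G)) := E8b.comap ρ ⊓ (centralizer (m.B0b : Set G)).subgroupOf _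

theorem BBb_conj {h a : centralizer ({z} : Set G)} (hn : ρ h ∈ normalizer (E8b : Set Γ)) (ha : a ∈ m.BBb) :
    h * a * h⁻¹ ∈ m.BBb := ⟨by simpa using (mem_normalizer_iff.mp hn _).mp ha.1, fun x hx => by
  have := ha.2 _ (m.B0b_conj (h := h⁻¹) (by simpa using hn) hx)
  simp only [coe_inv, inv_inv, coe_subtype, coe_mul] at this ⊢
  calc x * (h * a * (h : G)⁻¹) = h * ((h : G)⁻¹ * x * h * a) * (h : G)⁻¹ := by group
    _ = _ := by rw [this]; group⟩

variable [Finite G]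

theorem BBb_ker {a : centralizer ({z} : Set G)} : a ∈ m.BBb ⊓ ρ.ker ↔ (a : G) ∈ m.B0b :=
  ⟨fun h => self_cent m.lx.isExtraspecial (n := 6) m.card m.B0b_le m.card_B0b m.B0b_cent ((m.ker a).mp h.2) h.1.2,
    fun h => ⟨⟨by simp [(m.ker a).mpr h.1], m.B0b_cent h⟩, (m.ker a).mpr h.1⟩⟩

theorem BBb_ker' : (m.BBb ⊓ ρ.ker).map (centralizer ({z} : Set G)).subtype = m.B0b :=
  le_antisymm (map_le_iff_le_comap.mpr fun _ => m.BBb_ker.mp) fun x hx =>
    ⟨⟨x, m.lx.le_centralizer hx.1⟩, m.BBb_ker.mpr hx, rfl⟩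

end FT

variable [Finite G] {m : FT z Q ρ p} {x : centralizer ({z} : Set G)} {b : ℕ → G} {d : ℕ → centralizer ({z} : Set G)}
  {t : Finset GolayPt → G} {Φ : normalizer (m.AG : Set G) →* M24}

namespace JC
variable (k : JC m x b d t Φ)
include k

theorem liftB {e : Γ} (he : e ∈ E8b) : ∃ y ∈ m.BBb, ρ y = e ∧ y * y = 1 := by
  obtain ⟨y, rfl, h⟩ := k.j.lift (J0_XJ (E8b_J0 he))
  refine ⟨y, ⟨he, fun u hu => ?_⟩, rfl, k.sq_one (E8b_NJ he) h (E8b_sq he)⟩
  have hx : ρ x ∈ normalizer (E8b : Set Γ) := by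
    haveI : Finite E8b := Nat.finite_of_card_ne_zero (by rw [E8b_card]; norm_num)
    rw [k.c.hx]
    exact mem_normalizer_of_conj_mem fun a ha => by rwa [← W_comm (J0_GU (E8b_J0 ha)), mul_inv_cancel_right]
  have hy : ρ y ∈ normalizer (E8b : Set Γ) := le_normalizer he
  rcases m.uniq hu.1 (m.conj_mem y hu.1) (by rw [m.act y hu.1, hu.2 _ he]) with f | f
  · exact (mul_inv_eq_iff_eq_mul.mp f).symm
  have a1 := tr3_norm (x := (x : G)) (y := (y : G)) (a := u) (fun _ => m.B0b_sq) (fun _ => m.B0b_conj hx)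
    (congrArg Subtype.val k.c.x3) (h.imp (congrArg Subtype.val) (congrArg Subtype.val)) (m.B0b_conj hy hu)
  rw [f, tr3_mul (fun _ => m.B0b_sq) (fun _ => m.B0b_conj hx) m.z_B0b hu, m.tr_z1,
    m.lx.comm_of_mem_z (m.tr_mem k.c.hx hu.1) (mem_centralizer_singleton_iff.mp y.2), mul_inv_cancel_right] at a1
  exact absurd (mul_eq_right.mp a1) m.lx.ne_one

theorem BBb_sq {a : centralizer ({z} : Set G)} (ha : a ∈ m.BBb) : a * a = 1 := by
  obtain ⟨y, hy, e, s⟩ := k.liftB ha.1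
  have h := (m.BBb_ker (a := y⁻¹ * a)).mp ⟨m.BBb.mul_mem (m.BBb.inv_mem hy) ha, by simp [e]⟩
  have h1 : y⁻¹ * a * y = y * (y⁻¹ * a) := Subtype.ext (hy.2 _ h)
  have h2 : y⁻¹ * a * (y⁻¹ * a) = 1 := Subtype.ext (m.B0b_sq h)
  calc a * a = y * (y⁻¹ * a * y) * (y⁻¹ * a) := by group
    _ = y * y * (y⁻¹ * a * (y⁻¹ * a)) := by rw [h1]; simp only [mul_assoc]
    _ = _ := by rw [h2, s, mul_one]

theorem exists_ten : ∃ B : Subgroup G, (∀ a ∈ B, a * a = 1) ∧ Nat.card B = 1024 ∧ B ≤ normalizer (m.AG : Set G) ∧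
    ¬ B ≤ m.AG ∧ ∃ y ∈ normalizer (B : Set G), y ∉ normalizer (m.AG : Set G) := by
  have h1 : m.BBb.map ρ = E8b := le_antisymm (map_le_iff_le_comap.mpr inf_le_left) fun e he =>
    let ⟨y, h, f, _⟩ := k.liftB he; ⟨y, h, f⟩
  obtain ⟨g, hg, g1, g2⟩ := yyb_ok
  obtain ⟨y, rfl⟩ := k.j.hr.ge (J0_XJ hg)
  refine ⟨m.BBb.map (centralizer ({z} : Set G)).subtype, ?_, ?_, ?_, fun h => ?_, y, mem_normalizer_of_conj_mem ?_, fun h => g2 ?_⟩
  · rintro _ ⟨a, ha, rfl⟩; exact congrArg Subtype.val (k.BBb_sq ha)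
  · rw [card_map_of_injective (subtype_injective _), ← m.card_inf, h1, m.BBb_ker', E8b_card, m.card_B0b]; norm_num
  · rintro _ ⟨a, ha, rfl⟩; exact m.AG_norm (NJ_norm (E8b_NJ ha.1))
  · obtain ⟨a, ha, e⟩ := h1.ge (⟨1, by norm_num, rfl⟩ : el (eeb 1) ∈ E8b)
    obtain ⟨c, hc, f⟩ := h ⟨a, ha, rfl⟩
    obtain rfl : c = a := Subtype.ext f
    exact eeb1_not (e ▸ hc.1)
  · rintro _ ⟨a, ha, rfl⟩; exact ⟨_, m.BBb_conj g1 ha, rfl⟩
  · haveI : Finite F16 := Nat.finite_of_card_ne_zero (by rw [F16_card]; norm_num)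
    refine mem_normalizer_of_conj_mem fun e he => ?_
    obtain ⟨a, ha, rfl⟩ := k.j.AA_map.ge he
    obtain ⟨c, hc, f⟩ := (mem_normalizer_iff.mp h a).mp ⟨a, ha, rfl⟩
    obtain rfl : c = y * a * y⁻¹ := Subtype.ext f
    simpa using hc.1

end JC

end Cfsg.Agent.LL.U6
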