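import Cfsg.Agent.J4B.M24
import Cfsg.Agent.J4B.Pf

/-! The elementary abelian subgroups of order `2 ^ 10` of the split extension `2 ^ 11 : M24`. -/

set_option autoImplicit false
set_option maxRecDepth 100000
set_option linter.style.haveILetI false

namespace Cfsg.Agent.J4B

open Cfsg Cfsg.Agent.H16 Cfsg.Agent.H3 Cfsg.Agent.H10 Cfsg.Agent.LL MulAction Subgroup
open scoped Pointwise symmDiff

variable {N : Type*} [Group N]

/-- coordinates on the split extension -/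
structure SD (t : Finset GolayPt → N) (Φ : N →* M24) (κ : M24 →* N) : Prop extends Todd Φ.ker t where
  act : ∀ n S, Even S.card → n * t S * n⁻¹ = t (Φ n • S)
  sec : ∀ g, Φ (κ g) = g

noncomputable def ff (t : Finset GolayPt → N) (κ : M24 →* N) (i : ℕ) : N := t (toSet (sA i)) * κ (eps (i >>> 6))

theorem even_of_mem {S : Finset GolayPt} (h : S ∈ gSets) : Even S.card :=
  Nat.even_iff.mpr (by have := card_of_mem_gSets h; omega)

theorem sh_lt {i : ℕ} (h : i < 1024) : i >>> 6 < 16 := by rw [Nat.shiftRight_eq_div_pow]; omega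

noncomputable def actOk (D p i j : ℕ) : Bool := force (eP (Nat.shiftRight j 6)) fun q =>
  andB (Nat.beq (mul24 p (eP (Nat.shiftRight i 6))) (mul24 q p))
    (isCode (Nat.xor (Nat.xor (Nat.xor D (imgS p (sA i))) (imgS q D)) (sA j)))

noncomputable def koP (a : ℕ) : ℕ := nth 0 koG a
noncomputable def AF (a i : ℕ) : ℕ := xc (get 10 (nth 0 [479249541299878566906498655287, 276411865171778169761153714212] a)) 10 i

theorem AF_ok : ∀ a ∈ [0, 1], ∀ i < 1024, AF a i < 1024 ∧ actOk (17 ^^^ imgS (koP a) 17) (koP a) i (AF a i) = true := by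
  have := allL_iff.mp (by decide +kernel : allL [0, 1] (fun a => force (koP a) fun p => force (Nat.xor 17 (imgS p 17)) fun D =>
    allN 1024 fun i => force (AF a i) fun j => actOk D p i j) = true)
  simp only [force_eq, allN_iff] at this
  exact fun a ha i hi => ⟨xc_lt (w := 10) (fun _ _ => get_lt _ _ _) i, this a ha i hi⟩

theorem orb_ok : ∀ b ∈ [1, 12, 64, 72], ∀ i < 1024, rp i = b → i = 0 ∨ (flood 1024 AF [0, 1] 17 b).testBit i = true := by
  have := allL_iff.mp (by decide +kernel : allL [1, 12, 64, 72] (fun b => force (flood 1024 AF [0, 1] 17 b) fun V =>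
    allN 1024 fun i => impB (Nat.beq (rp i) b) (orB (Nat.beq i 0) (tb V i))) = true)
  simpa only [force_eq, allN_iff, impB_iff, orB_iff, Nat.beq_eq, tb_eq] using this

namespace SD
variable {t : Finset GolayPt → N} {Φ : N →* M24} {κ : M24 →* N} (h : SD t Φ κ)
include h

theorem t_of {S T : Finset GolayPt} (e : S ∆ T ∈ gSets) : t S = t T := by
  have := (h.ker _ (even_of_mem e)).mpr e
  rw [h.mul] at this
  rw [eq_inv_of_mul_eq_one_left this, inv_eq_of_mul_eq_one_left (h.sq T)]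

theorem of_t {S T : Finset GolayPt} (hS : Even S.card) (hT : Even T.card) (e : t S = t T) : S ∆ T ∈ gSets :=
  (h.ker _ (even_sd hS hT)).mp (by rw [h.mul, e, h.sq])

theorem phi_t (S : Finset GolayPt) : Φ (t S) = 1 := h.mem S
theorem t_inv (S : Finset GolayPt) : (t S)⁻¹ = t S := inv_eq_of_mul_eq_one_left (h.sq S)

theorem v_sq {v : N} (hv : Φ v = 1) : v * v = 1 := by obtain ⟨S, -, rfl⟩ := h.surj v hv; exact h.sq S
theorem comm {a b : N} (ha : Φ a = 1) (hb : Φ b = 1) : a * b = b * a :=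
  H11.comm_of_sq_eq_one (V := Φ.ker) (fun _ => h.v_sq) ha hb

theorem fx_iff {n : N} {m : ℕ} (e : Even (toSet m).card) : n * t (toSet m) = t (toSet m) * n ↔ FX (Φ n) m := by
  rw [← mul_inv_eq_iff_eq_mul, h.act n _ e]
  exact ⟨h.of_t (by simpa using e) e, h.t_of⟩

theorem cv {n : N} {p k : ℕ} {F : ℕ → ℕ} (r : Rep gpt 24 (Φ n) (get 5 p)) (c : fixChk p k F = true) {v : N} (hv : Φ v = 1)
    (e : n * v = v * n) : ∃ j < k, t (toSet (F j)) = v := by
  obtain ⟨S, s, rfl⟩ := h.surj v hv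
  obtain ⟨i, hi, a, b⟩ := repr_even s
  rw [h.t_of b] at e ⊢
  obtain ⟨j, hj, f⟩ := fix_of_chk r c hi a ((h.fx_iff a).mp e)
  exact ⟨j, hj, (h.t_of f).symm⟩

theorem cv0 {n v : N} (r : Φ n = eps 1) (hv : Φ v = 1) (e : n * v = v * n) : ∃ j < 128, t (toSet (fv j)) = v := by
  obtain ⟨j, hj, f⟩ := h.cv (r ▸ rep_e0) chk_e0 hv e
  exact ⟨j, hj, by rwa [get_linT (fun _ _ => get_lt _ _ _) (show j < 2 ^ 7 from hj)] at f⟩

theorem cvE {n n' v : N} (r : Φ n = eps 1) (r' : Φ n' = eps 2) (hv : Φ v = 1) (e : n * v = v * n) (e' : n' * v = v * n') :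
    ∃ j < 64, t (toSet (sA j)) = v := by
  obtain ⟨j, hj, rfl⟩ := h.cv0 r hv e
  have := (FX_eps (by norm_num) hj (r' ▸ (h.fx_iff (fv_even j)).mp e')).resolve_right (by norm_num)
  exact ⟨j, this, by rw [fv_sA this]⟩

theorem k_t {e : M24} (he : e ∈ E16) {S : Finset GolayPt} (hS : S ⊆ toSet oct0) (s : Even S.card) : κ e * t S = t S * κ e := by
  rw [← mul_inv_eq_iff_eq_mul, h.act _ _ s, h.sec, E16_smul he hS]

theorem ff_mul {i j : ℕ} (hi : i < 1024) (hj : j < 1024) : ff t κ (i ^^^ j) = ff t κ i * ff t κ j := by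
  rw [ff, ff, ff, sA, xc_xor, toSet_xor, h.mul, Nat.shiftRight_xor_distrib, eps_xor (sh_lt hi) (sh_lt hj), map_mul, mul_assoc,
    mul_assoc, ← mul_assoc (κ _), h.k_t (eps_ok _).1 (sA_sub j) (sA_even j), mul_assoc]; rfl

theorem ff_phi (i : ℕ) : Φ (ff t κ i) = eps (i >>> 6) := by rw [ff, map_mul, h.phi_t, h.sec, one_mul]

omit h in
theorem ff_low {j : ℕ} (hj : j < 64) : ff t κ j = t (toSet (sA j)) := by
  rw [ff, Nat.shiftRight_eq_div_pow, Nat.div_eq_of_lt hj, eps_zero, map_one, mul_one]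

theorem ff_zero : ff t κ 0 = 1 := by rw [ff_low (by norm_num), sA, xc_of_zero, toSet_zero, h.empty]

theorem low {i : ℕ} (hi : i < 1024) (e : Φ (ff t κ i) = 1) : i < 64 := by
  have := eps_inj (sh_lt hi) (by norm_num) ((h.ff_phi i).symm.trans (e.trans eps_zero.symm))
  rw [Nat.shiftRight_eq_div_pow] at this; omega

theorem ff_inj {i j : ℕ} (hi : i < 1024) (hj : j < 1024) (e : ff t κ i = ff t κ j) : i = j := by
  have h1 : ff t κ (i ^^^ j) = 1 := by rw [h.ff_mul hi hj, e, ← h.ff_mul hj hj, Nat.xor_self, h.ff_zero]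
  have h2 := h.low (Nat.xor_lt_two_pow (n := 10) hi hj) (by rw [h1, map_one])
  rw [ff_low h2, h.ker _ (sA_even _), toSet_mem_iff (sA_lt _)] at h1
  exact Nat.xor_eq_zero_iff.mp ((by decide +kernel : ∀ k < 64, isCode (sA k) = true → k = 0) _ h2 h1)

/-- the subgroup of order `2 ^ 10` -/
def A1 : Subgroup N where
  carrier := {a | ∃ i < 1024, ff t κ i = a}
  one_mem' := ⟨0, by norm_num, h.ff_zero⟩
  mul_mem' := by
    rintro _ _ ⟨i, hi, rfl⟩ ⟨j, hj, rfl⟩
    exact ⟨_, Nat.xor_lt_two_pow (n := 10) hi hj, h.ff_mul hi hj⟩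
  inv_mem' := by
    rintro _ ⟨i, hi, rfl⟩
    exact ⟨i, hi, (inv_eq_of_mul_eq_one_left (by rw [← h.ff_mul hi hi, Nat.xor_self, h.ff_zero])).symm⟩

theorem card_A1 : Nat.card h.A1 = 1024 := by
  have e : (h.A1 : Set N) = ff t κ '' (Finset.range 1024 : Set ℕ) := Set.ext fun g =>
    ⟨fun ⟨i, hi, e⟩ => ⟨i, by simpa using hi, e⟩, fun ⟨i, hi, e⟩ => ⟨i, by simpa using hi, e⟩⟩
  change (h.A1 : Set N).ncard = 1024
  rw [e, Set.InjOn.ncard_image fun i hi j hj => h.ff_inj (by simpa using hi) (by simpa using hj), Set.ncard_coe_finset,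
    Finset.card_range]

theorem mem_A1 {j l : ℕ} (hj : j < 64) (hl : l < 16) : t (toSet (sA j)) * κ (eps l) ∈ h.A1 := by
  have := (by decide +kernel : ∀ j < 64, ∀ l < 16, sA (j + 64 * l) = sA j ∧ (j + 64 * l) >>> 6 = l) j hj l hl
  exact ⟨j + 64 * l, by omega, by rw [ff, this.1, this.2]⟩

theorem k_comm {i j : ℕ} (hi : i < 16) (hj : j < 16) : κ (eps i) * κ (eps j) = κ (eps j) * κ (eps i) := by
  rw [← map_mul, ← map_mul, ← eps_xor hi hj, ← eps_xor hj hi, Nat.xor_comm]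

theorem k_mem {l : ℕ} (hl : l < 16) : κ (eps l) ∈ h.A1 := by
  simpa [sA, xc_of_zero, toSet_zero, h.empty] using h.mem_A1 (j := 0) (by norm_num) hl

theorem t_mem {S : Finset GolayPt} (hS : S ⊆ toSet oct0) (s : Even S.card) : t S ∈ h.A1 := by
  obtain ⟨j, hj, e⟩ := h.cvE (h.sec _) (h.sec _) (h.phi_t S) (h.k_t (eps_ok 1).1 hS s) (h.k_t (eps_ok 2).1 hS s)
  exact ⟨j, by omega, (ff_low hj).trans e⟩

theorem cent_A1 : centralizer (h.A1 : Set N) ≤ h.A1 := fun c hc => by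
  have h1 : Φ c ∈ E16 := (mem_fixingSubgroup_iff _).mpr fun x hx => by
    have k : ∀ y ∈ toSet oct0, x ≠ y → Φ c • x = x ∨ Φ c • x = y := fun y hy n => by
      have s : Even ({x, y} : Finset GolayPt).card := by simp [n]
      have := hc _ (h.t_mem (Finset.insert_subset hx (Finset.singleton_subset_iff.mpr hy)) s)
      rw [eq_comm, ← mul_inv_eq_iff_eq_mul, h.act _ _ s] at this
      simpa using (h.inj (by simpa using s) s (by simp [n]) this).le (Finset.smul_mem_smul_finset (Finset.mem_insert_self x {y}))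
    obtain ⟨y, hy, w, hw, n⟩ := Finset.one_lt_card.mp (show 1 < ((toSet oct0).erase x).card by
      rw [Finset.card_erase_of_mem hx, card_toSet]; decide +kernel)
    rw [Finset.mem_erase] at hy hw
    exact (k y hy.2 hy.1.symm).elim id fun a => (k w hw.2 hw.1.symm).resolve_right fun b => n (a.symm.trans b)
  obtain ⟨l, hl, e⟩ := eps_surj h1
  have k : ∀ i < 16, κ (eps i) * (c * (κ (eps l))⁻¹) = c * (κ (eps l))⁻¹ * κ (eps i) := fun i hi =>
    (Commute.mul_right (hc _ (h.k_mem hi)) (Commute.inv_right (h.k_comm hi hl))).eq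
  obtain ⟨j, hj, f⟩ := h.cvE (h.sec _) (h.sec _) (by simp [h.sec, e]) (k 1 (by norm_num)) (k 2 (by norm_num))
  simpa [f] using h.mem_A1 hj hl

theorem core0 {B : Subgroup N} (h2 : ∀ b ∈ B, b * b = 1) (h1 : ∀ b ∈ B, Φ b ∈ E16) {b1 : N} (m1 : b1 ∈ B) (e1 : Φ b1 = eps 2)
    (m0 : κ (eps 1) ∈ B) : B ≤ h.A1 := fun b hb => by
  obtain ⟨l, hl, e⟩ := eps_surj (h1 b hb)
  have s : κ (eps l) * κ (eps l) = 1 := by rw [← map_mul, eps_sq hl, map_one]
  obtain ⟨j, hj, f⟩ := h.cv0 (h.sec _) (v := b * (κ (eps l))⁻¹) (by simp [h.sec, e])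
    (Commute.mul_right (H11.comm_of_sq_eq_one h2 m0 hb) (Commute.inv_right (h.k_comm (by norm_num) hl))).eq
  have f' : b = t (toSet (fv j)) * κ (eps l) := by simp [f]
  have a1 : κ (eps l) * t (toSet (fv j)) = t (toSet (fv j)) * κ (eps l) := by
    rw [← f', ← inv_eq_of_mul_eq_one_left (h2 b hb), f', mul_inv_rev, h.t_inv, inv_eq_of_mul_eq_one_left s]
  have a2 : j < 64 := (FX_eps hl hj (h.sec (eps l) ▸ (h.fx_iff (fv_even j)).mp a1)).elim id fun n => by
    have : κ (eps l) ∈ B := by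
      interval_cases l
      exacts [by rw [eps_zero, map_one]; exact one_mem _, m0]
    exact (FX_eps (by norm_num) hj (e1 ▸ (h.fx_iff (fv_even j)).mp (f ▸ H11.comm_of_sq_eq_one h2 m1
      (mul_mem hb (inv_mem this))))).resolve_right (by norm_num)
  rw [f', fv_sA a2]; exact h.mem_A1 a2 hl

theorem cj_k {g : M24} {p : ℕ} (r : Rep gpt 24 g (get 5 p)) :
    t (toSet 17) * κ g * (t (toSet 17))⁻¹ = t (toSet (17 ^^^ imgS p 17)) * κ g := by
  rw [toSet_xor, h.mul, ← r.smul_toSetS, ← h.sec g, ← h.act _ _ (by rw [card_toSet]; decide +kernel), h.sec, h.t_inv]; group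

variable [Finite N]

theorem core {B : Subgroup N} (h2 : ∀ b ∈ B, b * b = 1) (hc : Nat.card B = 1024) {b0 : N} (m0 : b0 ∈ B) (e0 : Φ b0 = eps 1)
    (hT : B.map Φ ≤ T0) : B = h.A1 ∨ MulAut.conj (t (toSet 17)) • B = h.A1 := by
  have a1 := card_map_mul_card_inf_ker Φ B
  have a2 : B.map Φ = E16 := big (by rintro _ ⟨b, hb, rfl⟩; rw [← map_mul, h2 b hb, map_one]) hT
    (X := {j | j < 128 ∧ t (toSet (fv j)) ∈ B}) (fun _ h => h.1)
    (by rintro _ ⟨b, hb, rfl⟩ j hj; exact (h.fx_iff (fv_even j)).mp (H11.comm_of_sq_eq_one h2 hb hj.2)) (by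
      rw [← hc, ← a1]
      refine Nat.mul_le_mul_left _ ((Set.ncard_le_ncard (fun v hv => ?_) ?_).trans
        (Set.ncard_image_le (f := fun j => t (toSet (fv j))) ((Set.finite_lt_nat 128).subset fun _ h => h.1)))
      · obtain ⟨j, hj, e⟩ := h.cv0 e0 hv.2 (H11.comm_of_sq_eq_one h2 m0 hv.1)
        exact ⟨j, ⟨hj, e ▸ hv.1⟩, e⟩
      · exact Set.toFinite _)
  obtain ⟨b1, m1, e1⟩ := a2.ge (eps_ok 2).1
  rw [a2, E16_facts.1, hc] at a1
  have a3 : ((B ⊓ Φ.ker : Subgroup N) : Set N) = (fun j => t (toSet (sA j))) '' (Finset.range 64 : Set ℕ) :=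
    Set.eq_of_subset_of_ncard_le (fun v hv => by
      obtain ⟨j, hj, e⟩ := h.cvE e0 e1 hv.2 (H11.comm_of_sq_eq_one h2 m0 hv.1) (H11.comm_of_sq_eq_one h2 m1 hv.1)
      exact ⟨j, by simpa using hj, e⟩) ((Set.ncard_image_le (Set.toFinite _)).trans (by
        rw [Set.ncard_coe_finset, Finset.card_range]; exact (show 64 = Nat.card ↥(B ⊓ Φ.ker) by omega).le))
  have a4 : ∀ j < 64, t (toSet (sA j)) ∈ B := fun j hj => (a3.ge ⟨j, by simpa using hj, rfl⟩).1
  have a5 : ∀ b ∈ B, Φ b ∈ E16 := fun b hb => a2.le ⟨b, hb, rfl⟩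
  have s : κ (eps 1) * κ (eps 1) = 1 := by rw [← map_mul, eps_sq (by norm_num), map_one]
  obtain ⟨j, hj, f⟩ := h.cv0 (h.sec _) (v := b0 * (κ (eps 1))⁻¹) (by simp [h.sec, e0]) (by
    have := h.v_sq (v := b0 * (κ (eps 1))⁻¹) (by simp [h.sec, e0])
    rw [inv_eq_of_mul_eq_one_left s] at this ⊢
    rw [mul_assoc, s, mul_one, ← mul_assoc, eq_comm, ← inv_eq_of_mul_eq_one_left (h2 b0 m0), inv_eq_iff_mul_eq_one,
      inv_eq_of_mul_eq_one_left (h2 b0 m0)]
    simpa only [mul_assoc] using this)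
  by_cases n : j < 64
  · refine Or.inl (eq_of_le_of_card_ge (h.core0 h2 a5 m1 e1 ?_) (by rw [h.card_A1, hc]))
    simpa [← fv_sA n, f] using mul_mem (inv_mem m0) (a4 j n)
  refine Or.inr (eq_of_le_of_card_ge (h.core0 (sq_conj h2 _) ?_ (conj_mem_conj_smul.mpr m1) (by simp [h.phi_t, e1]) ?_)
    (by rw [h.card_A1, card_conj_smul, hc]))
  · rintro _ ⟨b, hb, rfl⟩; simpa [h.phi_t] using a5 b hb
  · have a6 := h.cj_k rep_e0
    rw [h.t_inv] at a6
    rw [mem_conj_smul, h.t_inv, a6]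
    have := mul_mem (a4 (j - 64) (by omega)) m0
    rwa [eq_mul_of_mul_inv_eq f.symm, ← mul_assoc, ← h.mul, ← toSet_xor, (by decide +kernel : ∀ j < 128, ¬ j < 64 →
      sA (j - 64) ^^^ fv j = 17 ^^^ imgS e0P 17) j hj n] at this

theorem cls {B : Subgroup N} (h2 : ∀ b ∈ B, b * b = 1) (hc : Nat.card B = 1024) (hn : ¬ B ≤ Φ.ker) :
    ∃ n : N, MulAut.conj n • B = h.A1 := by
  rcases red (B := B.map Φ) (by rintro _ ⟨b, hb, rfl⟩; rw [← map_mul, h2 b hb, map_one]) (mt (map_eq_bot_iff B).mp hn) with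
    ⟨c, ⟨_, ⟨b, hb, rfl⟩, e⟩, f⟩ | ⟨a, c, _, ⟨b, hb, rfl⟩, e⟩
  · rcases h.core (sq_conj h2 (κ c)) (by rw [card_conj_smul, hc]) (conj_mem_conj_smul.mpr hb) (by simpa [h.sec] using e) (by
      rintro _ ⟨_, ⟨x, hx, rfl⟩, rfl⟩; simpa [h.sec] using f _ ⟨x, hx, rfl⟩) with l | l
    exacts [⟨_, l⟩, ⟨_, by rwa [smul_smul, ← map_mul] at l⟩]
  have a1 := card_map_mul_card_inf_ker Φ B
  have a2 : Nat.card ↥(MulAut.conj (κ c) • (B ⊓ Φ.ker)) ≤ 64 := by
    refine (Set.ncard_le_ncard (t := (fun j => t (toSet (get 24 (linT 24 (get 24 R2) 6) j))) '' (Finset.range 64 : Set ℕ)) ?_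
      (Set.toFinite _)).trans ((Set.ncard_image_le (Set.toFinite _)).trans (by simp))
    rintro _ ⟨v, hv, rfl⟩
    obtain ⟨j, hj, l⟩ := h.cv (n := κ c * b * (κ c)⁻¹) (by simpa [h.sec, e] using rep2B) chk_2B (v := κ c * v * (κ c)⁻¹)
      (by simp [show Φ v = 1 from hv.2]) (by rw [conj_mul, conj_mul, H11.comm_of_sq_eq_one h2 hb hv.1])
    exact ⟨j, by simpa using hj, l⟩
  rw [card_conj_smul] at a2
  have := Nat.mul_le_mul a a2
  omega

omit [Finite N] in
theorem act_ff {g : M24} {p D i j : ℕ} (r : Rep gpt 24 g (get 5 p)) (hD : Even (toSet D).card) (c : actOk D p i j = true) :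
    t (toSet D) * κ g * ff t κ i * (t (toSet D) * κ g)⁻¹ = ff t κ j := by
  rw [actOk, force_eq, andB_iff, Nat.beq_eq] at c
  have a1 : g * eps (i >>> 6) = eps (j >>> 6) * g := (rep_mul r (rep_eps _)).M24_eq (c.1 ▸ rep_mul (rep_eps _) r)
  have a2 := h.act (κ g) _ (sA_even i)
  have a3 := h.act (κ (eps (j >>> 6))) _ hD
  have a4 := toSet_mem_of_isCode (m := D ^^^ imgS p (sA i) ^^^ imgS (eP (j >>> 6)) D ^^^ sA j) c.2
  rw [toSet_xor] at a4
  replace a4 := h.t_of a4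
  rw [h.sec, r.smul_toSetS] at a2
  rw [h.sec, (rep_eps _).smul_toSetS] at a3
  replace a1 := congrArg κ a1
  rw [map_mul, map_mul] at a1
  rw [ff, ff, ← a4, toSet_xor, toSet_xor, h.mul, h.mul, ← a2, ← a3, mul_inv_rev, h.t_inv]
  calc _ = t (toSet D) * κ g * t (toSet (sA i)) * (κ g)⁻¹ * (κ g * κ (eps (i >>> 6))) * (κ g)⁻¹ * t (toSet D) := by group
    _ = _ := by rw [a1]; group

/-- the complement -/
noncomputable def K0 (t : Finset GolayPt → N) (κ : M24 →* N) : Subgroup N :=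
  KO.map ((MulAut.conj (t (toSet 17))).toMonoidHom.comp κ)

omit [Finite N] in
theorem gen_act {a : ℕ} (ha : a ∈ [0, 1]) {g : M24} (r : Rep gpt 24 g (get 5 (koP a))) {i : ℕ} (hi : i < 1024) :
    t (toSet 17) * κ g * (t (toSet 17))⁻¹ * ff t κ i * (t (toSet 17) * κ g * (t (toSet 17))⁻¹)⁻¹ = ff t κ (AF a i) := by
  rw [h.cj_k r]
  refine h.act_ff r ?_ (AF_ok a ha i hi).2
  rw [toSet_xor, ← r.smul_toSetS]
  have : Even (toSet 17).card := by rw [card_toSet]; decide +kernel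
  exact even_sd this (by simpa using this)

theorem K0_norm : K0 t κ ≤ normalizer (h.A1 : Set N) := map_le_iff_le_comap.mpr (gen_koG.le fun p hp g _ r =>
  mem_normalizer_of_conj_mem (by
    rintro _ ⟨i, hi, rfl⟩
    obtain ⟨a, ha, rfl⟩ := (by decide +kernel : ∀ p ∈ koG, ∃ a ∈ [0, 1], koP a = p) p hp
    exact ⟨_, (AF_ok a ha i hi).1, (h.gen_act ha r hi).symm⟩))

omit [Finite N] in
theorem card_K0 : Nat.card (K0 t κ) = 322560 := by
  rw [K0, card_map_of_injective ((MulAut.conj _).injective.comp (Function.LeftInverse.injective h.sec)), card_KO]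

omit [Finite N] in
theorem K0_inf : K0 t κ ⊓ h.A1 = ⊥ := eq_bot_iff.mpr (by
  rintro _ ⟨⟨g, -, rfl⟩, i, hi, e⟩
  have a1 : eps (i >>> 6) = g := by simpa [h.ff_phi, h.phi_t, h.sec] using congrArg Φ e
  replace e : ff t κ i = t (toSet 17) * κ g * (t (toSet 17))⁻¹ := e
  have s : Even (toSet 17).card := by rw [card_toSet]; decide +kernel
  rw [h.cj_k (a1 ▸ rep_eps _), ff, a1, mul_left_inj] at e
  have a2 := h.of_t (sA_even i) (by rw [toSet_xor, ← (rep_eps _).smul_toSetS]; exact even_sd s (by simpa using s)) e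
  rw [← toSet_xor, toSet_mem_iff (Nat.xor_lt_two_pow (sA_lt i) (Nat.xor_lt_two_pow (by norm_num)
    (imgS_lt (fun k hk => (rep_eps _ k hk).1) _)))] at a2
  have a3 := (by decide +kernel : ∀ i < 1024, isCode (sA i ^^^ (17 ^^^ imgS (eP (i >>> 6)) 17)) = true → i >>> 6 = 0) i hi a2
  rw [← a1, a3, eps_zero, map_one]; exact one_mem _)

omit [Finite N] in
theorem orb {i : ℕ} (hi : i < 1024) (n : i ≠ 0) : ∃ k ∈ K0 t κ, k * ff t κ (rp i) * k⁻¹ = ff t κ i := by
  have hb : rp i ∈ [1, 12, 64, 72] := by rw [rp_eq]; split_ifs <;> simp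
  refine (flood_sound (P := fun j => j < 1024 ∧ ∃ k ∈ K0 t κ, k * ff t κ (rp i) * k⁻¹ = ff t κ j) (fun _ h => h.1) ?_ 17 (rp i)
    ⟨(by decide : ∀ b ∈ [1, 12, 64, 72], b < 1024) _ hb, 1, one_mem _, by simp⟩ i ((orb_ok _ hb i hi rfl).resolve_left n)).2
  rintro j ⟨hj, k, hk, e⟩ a ha
  obtain ⟨g, hg, r⟩ := koG_inK _ ((by decide +kernel : ∀ a ∈ [0, 1], koP a ∈ koG) a ha)
  exact ⟨(AF_ok a ha j hj).1, _, mul_mem ⟨g, hg, rfl⟩ hk, by rw [cjcj, e]; exact h.gen_act ha r hj⟩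

end SD

end Cfsg.Agent.J4B
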