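import Cfsg.Agent.J4B.Chow
import Cfsg.Agent.J4B.SD
import Cfsg.Agent.J4B.Rho

/-! The self-centralizing elementary abelian subgroups of order `2 ^ 10` of a simple group of Janko-four type. -/

set_option autoImplicit false
set_option maxRecDepth 100000
set_option linter.style.haveILetI false

namespace Cfsg.Agent.J4B

open Cfsg Cfsg.Agent.H16 Cfsg.Agent.H3 Cfsg.Agent.H10 Cfsg.Agent.LL Cfsg.Agent.LL.U6 MulAction Subgroup
open scoped Pointwise symmDiff

variable {G : Type*} [Group G] [Finite G] {z : G} {Q : Subgroup G} {ρ : centralizer ({z} : Set G) →* Γ} {p : G → V6}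
  {m : FT z Q ρ p} {x : centralizer ({z} : Set G)} {b : ℕ → G} {d : ℕ → centralizer ({z} : Set G)}
  {t : Finset GolayPt → G} {Φ : normalizer (m.AG : Set G) →* M24}

theorem exists_sd (k : JC m x b d t Φ) : ∃ κ, SD (fun S => ⟨t S, le_normalizer (k.h.mem S)⟩) Φ κ := by
  obtain ⟨K, hK⟩ := k.split
  obtain ⟨-, ψ, h⟩ := hK.iso k.h.toMS
  refine ⟨(inclusion hK.le).comp ψ.symm.toMonoidHom, ⟨fun S => (k.ker _).mpr (k.h.mem S), fun S T => Subtype.ext (k.h.mul S T),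
    fun S e => Subtype.ext_iff.trans (k.h.ker S e), fun a ha => ?_⟩, fun n S e => Subtype.ext (k.act n S e), fun g =>
    Subtype.ext (k.h.perm_eq fun S e => (k.act _ S (by simp [e])).symm.trans ((h (ψ.symm g) S (by simp [e])).trans (by simp; rfl)))⟩
  obtain ⟨S, e, f⟩ := k.h.surj a ((k.ker a).mp ha)
  exact ⟨S, e, Subtype.ext f⟩

theorem exists_ten (k : JC m x b d t Φ) : ∃ A K f, Ten A K (normalizer (m.AG : Set G)) f ∧
    ∀ B : Subgroup G, (∀ b ∈ B, b * b = 1) → Nat.card B = 1024 → centralizer (B : Set G) ≤ B → ∃ g : G, B = MulAut.conj g • A := by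
  obtain ⟨κ, h⟩ := exists_sd k
  set t' : Finset GolayPt → normalizer (m.AG : Set G) := fun S => ⟨t S, le_normalizer (k.h.mem S)⟩
  let f : ℕ → G := fun i => (ff t' κ i : normalizer (m.AG : Set G))
  set A := h.A1.map (normalizer (m.AG : Set G)).subtype
  have cls : ∀ B : Subgroup G, (∀ b ∈ B, b * b = 1) → Nat.card B = 1024 → B ≤ normalizer (m.AG : Set G) → ¬ B ≤ m.AG →
      ∃ n ∈ normalizer (m.AG : Set G), MulAut.conj n • B = A := fun B h2 hc hn hv => by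
    obtain ⟨n, e⟩ := h.cls (B := B.subgroupOf _) (fun b hb => Subtype.ext (h2 b hb))
      (by rw [Nat.card_congr (subgroupOfEquivOfLe hn).toEquiv, hc]) fun l => hv fun a ha => (k.ker ⟨a, hn ha⟩).mp (l ha)
    refine ⟨n, n.2, eq_of_le_of_card_ge ?_ (by rw [card_map_of_injective (subtype_injective _), h.card_A1, card_conj_smul, hc])⟩
    rintro _ ⟨a, ha, rfl⟩
    exact ⟨_, e.le (conj_mem_conj_smul.mpr (show (⟨a, hn ha⟩ : normalizer (m.AG : Set G)) ∈ B.subgroupOf _ from ha)), rfl⟩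
  have f12 : f 12 = t (toSet (sA 12)) := congrArg Subtype.val (SD.ff_low (t := t') (κ := κ) (by norm_num))
  have f1 : f 1 = t (toSet (sA 1)) := congrArg Subtype.val (SD.ff_low (t := t') (κ := κ) (by norm_num))
  have c12 : (toSet (sA 12)).card = 2 := by rw [card_toSet]; decide +kernel
  have c1 : (toSet (sA 1)).card = 4 := by rw [card_toSet]; decide +kernel
  have cm : centralizer {f 12} ≤ normalizer (m.AG : Set G) :=
    f12 ▸ k.h.cent_duad k.j.u11 (k.h.mem _) (k.h.not_conj c12) (k.h.ne_one c12)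
  refine ⟨A, (SD.K0 t' κ).map (Subgroup.subtype _), f, ⟨fun i hi j hj => congrArg Subtype.val (h.ff_mul hi hj),
    fun i hi j hj e => h.ff_inj hi hj (Subtype.ext e), fun a => ⟨fun ⟨_, ⟨i, hi, e⟩, l⟩ => ⟨i, hi, (congrArg Subtype.val e).trans l⟩,
      fun ⟨i, hi, e⟩ => ⟨_, ⟨i, hi, rfl⟩, e⟩⟩, fun c hc => ?_, (map_mono h.K0_norm).trans (le_normalizer_map _), map_subtype_le _,
    map_subtype_le _, by rw [← map_inf_eq _ _ _ (subtype_injective _), h.K0_inf, Subgroup.map_bot],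
    by rw [card_map_of_injective (subtype_injective _), h.card_K0], fun i hi n => ?_, cm, fun n hn i hi e => h.low hi ?_,
    fun c => k.h.not_conj c12 ((k.h.tetrad c1).trans (f1 ▸ f12 ▸ c).symm), ?_⟩, fun B h2 hc hB => ?_⟩
  · have := cm (mem_centralizer_singleton_iff.mpr (hc _ ⟨_, ⟨12, by norm_num, rfl⟩, rfl⟩).symm)
    exact ⟨⟨c, this⟩, h.cent_A1 fun a ha => Subtype.ext (hc _ ⟨a, ha, rfl⟩), rfl⟩
  · obtain ⟨g, hg, e⟩ := h.orb hi n
    exact ⟨g, ⟨g, hg, rfl⟩, congrArg Subtype.val e⟩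
  · rw [k.ker]
    change f i ∈ _
    rw [← e, f12]
    exact (mem_normalizer_iff.mp hn _).mp (k.h.mem _)
  · obtain ⟨B, h1, h2, h3, h4, y, y1, y2⟩ := k.exists_ten
    obtain ⟨n, hn, e⟩ := cls B h1 h2 h3 h4
    refine ⟨n * y * n⁻¹, ?_, fun l => y2 ((mul_mem_cancel_left hn).mp ((mul_mem_cancel_right (inv_mem hn)).mp l))⟩
    rw [← e, show normalizer ((MulAut.conj n • B : Subgroup G) : Set G) = MulAut.conj n • normalizer (B : Set G) from
      (map_equiv_normalizer_eq B (MulAut.conj n)).symm]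
    exact conj_mem_conj_smul.mpr y1
  · obtain ⟨g, hg⟩ := k.j.u11.conj_norm (two_of_sq h2)
    obtain ⟨n, -, e⟩ := cls _ (sq_conj h2 g) (by rw [card_conj_smul, hc]) hg fun l => by
      have : m.AG ≤ MulAut.conj g • B := fun v hv => mem_conj_smul.mpr (hB fun a ha => by
        have := k.h.comm (l (conj_mem_conj_smul.mpr ha)) hv
        calc a * (g⁻¹ * v * g) = g⁻¹ * (g * a * g⁻¹ * v) * g := by group
          _ = _ := by rw [this]; group)
      have := card_le_of_le this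
      rw [card_conj_smul, hc, k.h.cardA] at this
      omega
    exact ⟨(n * g)⁻¹, by rw [← e, smul_smul, smul_smul, ← map_mul, ← map_mul]; simp⟩

theorem exists_ten' [IsSimpleGroup G] (hG : ¬ IsMulCommutative G) (hJ : IsOfJankoFourType G) : ∃ A K M f, Ten (G := G) A K M f ∧
    ∀ B : Subgroup G, IsElementaryAbelian 2 B → Nat.card B = 2 ^ 10 → centralizer (B : Set G) = B → ∃ g : G, B = MulAut.conj g • A := by
  obtain ⟨z, P, h⟩ := hJ
  obtain ⟨ρ, p, m, x, j, -⟩ := exists_JF h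
  obtain ⟨b, d, t, Φ, k⟩ := j.exists_jc hG
  obtain ⟨A, K, f, h1, h2⟩ := exists_ten k
  exact ⟨A, K, _, f, h1, fun B a b c => h2 B (fun v hv => (pow_two v).symm.trans (a.2 v hv)) b c.le⟩

theorem f31_of {H : Type*} [Group H] {a b c : H} (h1 : b * a = a * a * b) (h2 : b * b = c) (h3 : c * c * b = 1) (h4 : a ≠ 1)
    (h5 : b ≠ 1) : orderOf a = 31 ∧ orderOf b = 5 ∧ b * a * b⁻¹ = a ^ 2 := by
  haveI : Fact (Nat.Prime 31) := ⟨by norm_num⟩
  haveI : Fact (Nat.Prime 5) := ⟨by norm_num⟩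
  replace h1 : b * a * b⁻¹ = a ^ 2 := by rw [h1, mul_inv_cancel_right, pow_two]
  replace h3 : b ^ 5 = 1 := by rw [← h3, ← h2]; simp [pow_succ, mul_assoc]
  have h6 : ∀ n, b ^ n * a * (b ^ n)⁻¹ = a ^ 2 ^ n := fun n => by
    induction n with
    | zero => simp
    | succ n ih => rw [pow_succ' b, cjcj, ih, ← conj_pow, h1, ← pow_mul, ← pow_succ']
  refine ⟨orderOf_eq_prime ?_ h4, orderOf_eq_prime h3 h5, h1⟩
  have := h6 5
  rw [h3, one_mul, inv_one, mul_one, show 2 ^ 5 = 31 + 1 from rfl, pow_succ] at this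
  exact mul_eq_right.mp this.symm

def mA : L5 := ⟨!![0, 0, 0, 0, 1; 1, 0, 0, 0, 0; 0, 1, 0, 0, 1; 0, 0, 1, 0, 0; 0, 0, 0, 1, 0], by decide +kernel⟩
def mB : L5 := ⟨!![1, 0, 0, 0, 1; 0, 0, 0, 1, 0; 0, 1, 0, 0, 1; 0, 0, 0, 1, 1; 0, 0, 1, 0, 0], by decide +kernel⟩
def mC : L5 := ⟨!![1, 0, 1, 0, 1; 0, 0, 0, 1, 1; 0, 0, 1, 1, 0; 0, 0, 1, 1, 1; 0, 1, 0, 0, 1], by decide +kernel⟩

theorem L5_f31 : ∃ a b : L5, orderOf a = 31 ∧ orderOf b = 5 ∧ b * a * b⁻¹ = a ^ 2 :=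
  ⟨mA, mB, f31_of (c := mC) (Subtype.ext (by decide +kernel)) (Subtype.ext (by decide +kernel)) (Subtype.ext (by decide +kernel))
    (fun e => absurd (congrArg Subtype.val e) (by decide +kernel)) fun e => absurd (congrArg Subtype.val e) (by decide +kernel)⟩

theorem Ten.f31 {A K M : Subgroup G} {f : ℕ → G} (h : Ten A K M f) :
    ∃ a b : G, orderOf a = 31 ∧ orderOf b = 5 ∧ b * a * b⁻¹ = a ^ 2 := by
  obtain ⟨B, -, -, -, ⟨e⟩⟩ := h.compl
  obtain ⟨a, b, h1, h2, h3⟩ := L5_f31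
  refine ⟨e.symm a, e.symm b, by rw [orderOf_coe, MulEquiv.orderOf_eq, h1], by rw [orderOf_coe, MulEquiv.orderOf_eq, h2], ?_⟩
  rw [← coe_pow, ← map_pow, ← h3]; simp

/-- the Frobenius group of order `31 * 5` -/
theorem f31 (k : JC m x b d t Φ) : ∃ a b : G, orderOf a = 31 ∧ orderOf b = 5 ∧ b * a * b⁻¹ = a ^ 2 :=
  let ⟨_, _, _, h, _⟩ := exists_ten k; h.f31

end Cfsg.Agent.J4B
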