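import Cfsg.Agent.J4B.Pf
import Cfsg.Agent.H21.Todd2
import Cfsg.Agent.H1.Gaschutz

/-! The normalizer of an elementary abelian subgroup of order `2 ^ 10` identified with an exterior square. -/

set_option autoImplicit false
set_option maxRecDepth 100000
set_option linter.style.haveILetI false

namespace Cfsg.Agent.J4B

open Cfsg Cfsg.Agent.H16 Cfsg.Agent.H3 Cfsg.Agent.H10 Cfsg.Agent.LL MulAction Subgroup Matrix
open scoped Pointwise

abbrev L5 := SpecialLinearGroup (Fin 5) (ZMod 2)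

theorem card_L5_le : Nat.card L5 ≤ 9999360 := by
  have : Nat.card (GL (Fin 5) (ZMod 2)) = 9999360 := by
    rw [Matrix.card_GL_field]; simp [Fin.prod_univ_succ]
  exact this ▸ Nat.card_le_card_of_injective _ SpecialLinearGroup.toGL_injective

def vec (φ : ℕ) : Fin 5 → ZMod 2 := fun r => if φ.testBit r then 1 else 0

theorem vec_xor (a b : ℕ) : vec (a ^^^ b) = vec a + vec b := funext fun r => by
  simp only [vec, Nat.testBit_xor, Pi.add_apply]
  cases a.testBit r <;> cases b.testBit r <;> decide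
theorem vec_inj : ∀ a < 32, ∀ b < 32, vec a = vec b → a = b := by decide +kernel
theorem vec_bit : ∀ c : Fin 5, vec (bit c) = Pi.single c 1 := by decide +kernel
theorem vec_zero : vec 0 = 0 := by decide

/-- an additive bijection which preserves the pure vectors -/
structure Pm (π : ℕ → ℕ) : Prop where
  lt : ∀ i < 1024, π i < 1024
  add : ∀ i < 1024, ∀ j < 1024, π (i ^^^ j) = π i ^^^ π j
  pure : ∀ i < 1024, (pf (π i) = 0 ↔ pf i = 0)

namespace Pm
variable {π : ℕ → ℕ} (h : Pm π)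
include h

theorem zero : π 0 = 0 := by simpa using h.add 0 (by norm_num) 0 (by norm_num)

theorem blk {φ ω : ℕ} (hφ : φ < 32) (h0 : φ ≠ 0) (hω : ω < 1024) (e : ct φ ω = 0) : ct (pf (π (tau φ))) (π ω) = 0 := by
  obtain ⟨h1, h2⟩ := pf_b hφ h0
  obtain ⟨i, rfl⟩ := h2 ω hω e
  refine (xc_ind (P := fun m => m < 1024 ∧ ct (pf (π (tau φ))) (π m) = 0) ⟨by norm_num, by rw [h.zero, ct_zero]⟩
    (fun a b ha hb => ⟨Nat.xor_lt_two_pow (n := 10) ha.1 hb.1, by rw [h.add a ha.1 b hb.1, ct_xor, ha.2, hb.2]; rfl⟩)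
    (fun b hb => ?_) i).2
  have l : get 10 (rwt φ) b < 1024 := get_lt 10 _ _
  exact ⟨l, pf_a (h.lt _ (tau_lt φ)) (h.lt _ l) (mt (h.pure _ (tau_lt φ)).mp (by rwa [pf_tau φ hφ])) ((h.pure _ l).mpr (h1 b hb).1)
    (by rw [← h.add _ (tau_lt φ) _ l]; exact (h.pure _ (Nat.xor_lt_two_pow (n := 10) (tau_lt φ) l)).mpr (h1 b hb).2)⟩

theorem pf_eq {ω : ℕ} (hω : ω < 1024) : pf (π ω) = pf (π (tau (pf ω))) := by
  by_cases e : pf ω = 0
  · rw [(h.pure ω hω).mpr e, e, tau_zero, h.zero, pf_zero]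
  · exact (pf_c (pf_lt _) (h.lt ω hω) (mt (h.pure _ (tau_lt _)).mp (by rwa [pf_tau _ (pf_lt ω)]))
      (h.blk (pf_lt ω) e hω (pf_c' hω))).resolve_left (mt (h.pure ω hω).mp e)

theorem sig_add {φ ψ : ℕ} (hφ : φ < 32) (hψ : ψ < 32) : pf (π (tau (φ ^^^ ψ))) = pf (π (tau φ)) ^^^ pf (π (tau ψ)) := by
  have z : pf (π (tau 0)) = 0 := by rw [tau_zero, h.zero, pf_zero]
  by_cases h0 : φ = 0
  · simp [h0, z]
  by_cases h1 : ψ = 0
  · simp [h1, z]
  by_cases n : φ = ψ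
  · simp [n, z]
  obtain ⟨p, hp, q, hq, r, hr, a1, a2, a3, a4, rfl, rfl⟩ := pf_d hφ hψ h0 h1 n
  have l := Nat.xor_lt_two_pow (n := 10) hq hr
  rw [← pf_e hp hq hr a1 a2 a3 a4, ← h.pf_eq (Nat.xor_lt_two_pow (n := 10) hp l), ← h.pf_eq (Nat.xor_lt_two_pow (n := 10) hp hq),
    ← h.pf_eq (Nat.xor_lt_two_pow (n := 10) hp hr), h.add p hp _ l, h.add q hq r hr, h.add p hp q hq, h.add p hp r hr]
  exact pf_e (h.lt p hp) (h.lt q hq) (h.lt r hr) ((h.pure p hp).mpr a1) ((h.pure q hq).mpr a2) ((h.pure r hr).mpr a3)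
    (by rw [← h.add q hq r hr]; exact (h.pure _ l).mpr a4)

theorem exists_mat : ∃ X : Matrix (Fin 5) (Fin 5) (ZMod 2), ∀ i < 1024, X *ᵥ vec (pf i) = vec (pf (π i)) := by
  refine ⟨of fun r c => vec (pf (π (tau (bit c)))) r, fun i hi => ?_⟩
  have := (xc_ind (P := fun m => m < 32 ∧ (of fun r (c : Fin 5) => vec (pf (π (tau (bit c)))) r) *ᵥ vec m = vec (pf (π (tau m))))
    ⟨by norm_num, by rw [tau_zero, h.zero, pf_zero, vec_zero, mulVec_zero]⟩
    (fun a b ha hb => ⟨Nat.xor_lt_two_pow (n := 5) ha.1 hb.1, by rw [h.sig_add ha.1 hb.1, vec_xor, vec_xor, mulVec_add, ha.2, hb.2]⟩)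
    (rows := bit) (k := 5) (fun b hb => ⟨(by decide +kernel : ∀ b < 5, bit b < 32) b hb, by
      rw [vec_bit ⟨b, hb⟩, mulVec_single_one]; rfl⟩) (pf i)).2
  rwa [xc_bit_self, Nat.mod_eq_of_lt (show pf i < 2 ^ 5 from pf_lt i), ← h.pf_eq hi] at this

theorem eq_id (e : ∀ i < 1024, pf (π i) = pf i) (n : ∀ i < 1024, π i = 0 → i = 0) {i : ℕ} (hi : i < 1024) : π i = i := by
  have := (xc_ind (P := fun m => m < 1024 ∧ π m = m) ⟨by norm_num, h.zero⟩
    (fun a b ha hb => ⟨Nat.xor_lt_two_pow (n := 10) ha.1 hb.1, by rw [h.add a ha.1 b hb.1, ha.2, hb.2]⟩)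
    (rows := bit) (k := 10) (fun b hb => ⟨(pf_bit b hb).2.1, (pf_f hb (h.lt _ (pf_bit b hb).2.1) fun k hk f => by
      have l := (by decide +kernel : ∀ b < 5, bit b < 32 ∧ bit b ≠ 0) k hk
      have := h.blk l.1 l.2 (pf_bit b hb).2.1 f
      rwa [e _ (tau_lt _), pf_tau _ l.1] at this).resolve_left (mt (n _ (pf_bit b hb).2.1) (pf_bit b hb).2.2)⟩) i).2
  rwa [xc_bit_self, Nat.mod_eq_of_lt (show i < 2 ^ 10 from hi)] at this

end Pm

theorem mat_ext {X Y : Matrix (Fin 5) (Fin 5) (ZMod 2)} (h : ∀ i < 1024, X *ᵥ vec (pf i) = Y *ᵥ vec (pf i)) : X = Y := by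
  ext r c
  have := h _ (tau_lt (bit c))
  rw [pf_tau _ ((by decide +kernel : ∀ b : Fin 5, bit b < 32) c), vec_bit, mulVec_single_one, mulVec_single_one] at this
  exact congrFun this r

variable {G : Type*} [Group G]

/-- the data on the subgroup of order `2 ^ 10` -/
structure Ten (A K M : Subgroup G) (f : ℕ → G) : Prop where
  mul : ∀ i < 1024, ∀ j < 1024, f (i ^^^ j) = f i * f j
  inj : ∀ i < 1024, ∀ j < 1024, f i = f j → i = j
  mem : ∀ a, a ∈ A ↔ ∃ i < 1024, f i = a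
  cent : centralizer (A : Set G) ≤ A
  kn : K ≤ normalizer (A : Set G)
  km : K ≤ M
  am : A ≤ M
  ka : K ⊓ A = ⊥
  card : Nat.card K = 322560
  orb : ∀ i < 1024, i ≠ 0 → ∃ k ∈ K, k * f (rp i) * k⁻¹ = f i
  cm : centralizer {f 12} ≤ M
  low : ∀ n ∈ M, ∀ i < 1024, n * f 12 * n⁻¹ = f i → i < 64
  nc : ¬ IsConj (f 12) (f 1)
  ex : ∃ y ∈ normalizer (A : Set G), y ∉ M

theorem cj_inv {g a b : G} (h : g * a * g⁻¹ = b) : g⁻¹ * b * g⁻¹⁻¹ = a := by rw [← h]; group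

theorem ncard_orb (H : Subgroup G) (a : G) :
    {v | ∃ n ∈ H, n * a * n⁻¹ = v}.ncard * Nat.card ↥(H ⊓ centralizer {a}) = Nat.card H := by
  refine Eq.trans ?_ (@card_eq_orbit_mul G G _ (MulAction.compHom G (MulAut.conj : G →* MulAut G)) H a).symm
  congr 1
  · congr 1
    exact Set.ext fun v => ⟨fun ⟨n, hn, e⟩ => ⟨⟨n, hn⟩, e⟩, fun ⟨n, e⟩ => ⟨n, n.2, e⟩⟩
  · refine Nat.card_congr (Equiv.subtypeEquivRight fun x => and_congr_right fun _ => ?_)
    exact mem_centralizer_singleton_iff.trans (mul_inv_eq_iff_eq_mul (a := x * a) (b := x) (c := a)).symm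

namespace Ten
variable {A K M : Subgroup G} {f : ℕ → G} (h : Ten A K M f)
include h

theorem zero : f 0 = 1 := by simpa using h.mul 0 (by norm_num) 0 (by norm_num)
theorem f_mem {i : ℕ} (hi : i < 1024) : f i ∈ A := (h.mem _).mpr ⟨i, hi, rfl⟩
theorem sq {a : G} (ha : a ∈ A) : a * a = 1 := by
  obtain ⟨i, hi, rfl⟩ := (h.mem a).mp ha
  rw [← h.mul i hi i hi, Nat.xor_self, h.zero]

theorem ncard_eq {X : Set G} {P : ℕ → Bool} (hX : X ⊆ A) (e : ∀ i < 1024, f i ∈ X ↔ P i = true) : X.ncard = cntN 1024 P := by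
  rw [cntN_eq, ← Set.ncard_coe_finset, ← Set.InjOn.ncard_image (f := f) fun i hi j hj => h.inj i
    (Finset.mem_range.mp (Finset.mem_filter.mp hi).1) j (Finset.mem_range.mp (Finset.mem_filter.mp hj).1)]
  congr 1
  refine Set.ext fun a => ⟨fun ha => ?_, fun ⟨i, hi, l⟩ => ?_⟩
  · obtain ⟨i, hi, rfl⟩ := (h.mem a).mp (hX ha)
    exact ⟨i, by simpa [hi] using (e i hi).mp ha, rfl⟩
  · simp only [Finset.coe_filter, Finset.mem_range, Set.mem_setOf_eq] at hi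
    exact l ▸ (e i hi.1).mpr hi.2

theorem cardA : Nat.card A = 1024 := (h.ncard_eq (P := fun _ => true) le_rfl fun _ hi => by simpa using h.f_mem hi).trans
  (by decide +kernel)

theorem cent_eq : centralizer (A : Set G) = A := le_antisymm h.cent fun _ ha _ hb => H11.comm_of_sq_eq_one (fun _ => h.sq) hb ha

theorem orb_iff {H : Subgroup G} (hK : K ≤ H) {a : G} {i : ℕ} (hi : i < 1024) (n : i ≠ 0) :
    (∃ n ∈ H, n * a * n⁻¹ = f i) ↔ ∃ n ∈ H, n * a * n⁻¹ = f (rp i) := by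
  obtain ⟨k, hk, e⟩ := h.orb i hi n
  exact ⟨fun ⟨n, hn, l⟩ => ⟨k⁻¹ * n, mul_mem (inv_mem (hK hk)) hn, by rw [cjcj, l, cj_inv e]⟩,
    fun ⟨n, hn, l⟩ => ⟨k * n, mul_mem (hK hk) hn, by rw [cjcj, l, e]⟩⟩

theorem orb_zero {H : Subgroup G} {b : ℕ} (hb : b < 1024) (n : b ≠ 0) : ¬ ∃ n ∈ H, n * f b * n⁻¹ = f 0 := fun ⟨_, _, e⟩ =>
  n (h.inj b hb 0 (by norm_num) ((conj_eq_one_iff.mp (e.trans h.zero)).trans h.zero.symm))

theorem orb_sub {H : Subgroup G} (hH : H ≤ normalizer (A : Set G)) {b : ℕ} (hb : b < 1024) :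
    {v | ∃ n ∈ H, n * f b * n⁻¹ = v} ⊆ A := by
  rintro _ ⟨n, hn, rfl⟩; exact (mem_normalizer_iff.mp (hH hn) _).mp (h.f_mem hb)

theorem orb_card {H : Subgroup G} (hK : K ≤ H) (hH : H ≤ normalizer (A : Set G)) {b : ℕ} (hb : b < 1024) (n : b ≠ 0) {l : List ℕ}
    (e : ∀ c ∈ [1, 12, 64, 72], (∃ n ∈ H, n * f b * n⁻¹ = f c) ↔ c ∈ l) :
    {v | ∃ n ∈ H, n * f b * n⁻¹ = v}.ncard = cntN 1024 fun i => andB (notB (Nat.beq i 0)) (anyL l (Nat.beq (rp i))) :=
  h.ncard_eq (h.orb_sub hH hb) fun i hi => by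
    simp only [andB_iff, notB_iff, anyL_iff, Nat.beq_eq, exists_eq_right', Set.mem_setOf_eq]
    by_cases z : i = 0
    · simpa [z] using h.orb_zero (H := H) hb n
    · rw [h.orb_iff hK hi z, e _ (by rw [rp_eq]; split_ifs <;> simp)]; simp [z]

variable [Finite G]

theorem main : (∀ c ∈ [1, 12, 64, 72], (∃ n ∈ normalizer (A : Set G), n * f 12 * n⁻¹ = f c) ↔ c ∈ [12, 72]) ∧
    Nat.card (normalizer (A : Set G)) = 31 * Nat.card ↥(normalizer (A : Set G) ⊓ M) := by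
  set N := normalizer (A : Set G)
  have a0 : ∀ H : Subgroup G, ¬ ∃ n ∈ H, n * f 12 * n⁻¹ = f 1 := fun _ ⟨n, _, e⟩ => h.nc (isConj_iff.mpr ⟨n, e⟩)
  have a0' : ∀ H : Subgroup G, ∃ n ∈ H, n * f 12 * n⁻¹ = f 12 := fun _ => ⟨1, one_mem _, by simp⟩
  have a1 := h.orb_card (H := N ⊓ M) (le_inf h.kn h.km) inf_le_left (b := 12) (by norm_num) (by norm_num) (l := [12]) (by
    have k : ∀ c < 1024, ¬ c < 64 → ¬ ∃ n ∈ N ⊓ M, n * f 12 * n⁻¹ = f c := fun c hc l ⟨n, hn, e⟩ => l (h.low n hn.2 c hc e)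
    simp only [List.forall_mem_cons]
    exact ⟨iff_of_false (a0 _) (by simp), iff_of_true (a0' _) (by simp), iff_of_false (k _ (by norm_num) (by norm_num)) (by simp),
      iff_of_false (k _ (by norm_num) (by norm_num)) (by simp), by simp⟩)
  have a2 := ncard_orb (N ⊓ M) (f 12)
  have a3 := ncard_orb N (f 12)
  rw [a1, show cntN 1024 _ = 28 by decide +kernel, inf_assoc, inf_eq_right.mpr h.cm] at a2
  obtain ⟨y, y1, y2⟩ := h.ex
  obtain ⟨m, a4⟩ := card_dvd_of_le (inf_le_left : N ⊓ M ≤ N)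
  have a5 : m ≠ 1 := fun e => y2 ((eq_of_le_of_card_ge inf_le_left (by rw [a4, e, mul_one])).ge y1).2
  have a6 : {v | ∃ n ∈ N, n * f 12 * n⁻¹ = v}.ncard = 28 * m := Nat.eq_of_mul_eq_mul_right Nat.card_pos (by
    rw [a3, a4, ← a2]; ring)
  have k : ∀ l : List ℕ, 1 ∉ l → 12 ∈ l → ((∃ n ∈ N, n * f 12 * n⁻¹ = f 64) ↔ 64 ∈ l) → ((∃ n ∈ N, n * f 12 * n⁻¹ = f 72) ↔ 72 ∈ l) →
      ∀ c ∈ [1, 12, 64, 72], (∃ n ∈ N, n * f 12 * n⁻¹ = f c) ↔ c ∈ l := fun l b1 b2 b3 b4 => by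
    simp only [List.forall_mem_cons]
    exact ⟨iff_of_false (a0 _) b1, iff_of_true (a0' _) b2, b3, b4, by simp⟩
  have k' := fun l e => h.orb_card h.kn le_rfl (b := 12) (by norm_num) (by norm_num) (l := l) e
  by_cases c1 : ∃ n ∈ N, n * f 12 * n⁻¹ = f 64 <;> by_cases c2 : ∃ n ∈ N, n * f 12 * n⁻¹ = f 72
  · have := k' _ (k [12, 64, 72] (by simp) (by simp) (iff_of_true c1 (by simp)) (iff_of_true c2 (by simp)))
    rw [a6, show cntN 1024 _ = 988 by decide +kernel] at this; omega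
  · have := k' _ (k [12, 64] (by simp) (by simp) (iff_of_true c1 (by simp)) (iff_of_false c2 (by simp)))
    rw [a6, show cntN 1024 _ = 148 by decide +kernel] at this; omega
  · have e := k [12, 72] (by simp) (by simp) (iff_of_false c1 (by simp)) (iff_of_true c2 (by simp))
    have := k' _ e
    rw [a6, show cntN 1024 _ = 868 by decide +kernel] at this
    exact ⟨e, by rw [a4, show m = 31 by omega, mul_comm]⟩
  · have := k' _ (k [12] (by simp) (by simp) (iff_of_false c1 (by simp)) (iff_of_false c2 (by simp)))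
    rw [a6, show cntN 1024 _ = 28 by decide +kernel] at this; omega

theorem np {i : ℕ} (hi : i < 1024) : (∃ n ∈ normalizer (A : Set G), n * f 12 * n⁻¹ = f i) ↔ pf i ≠ 0 := by
  by_cases z : i = 0
  · simpa [z, pf_zero] using h.orb_zero (H := normalizer (A : Set G)) (b := 12) (by norm_num) (by norm_num)
  rw [h.orb_iff h.kn hi z, h.main.1 _ (by rw [rp_eq]; split_ifs <;> simp), rp_eq]
  split_ifs <;> simp [*]

theorem pure {n : G} (hn : n ∈ normalizer (A : Set G)) {i j : ℕ} (hi : i < 1024) (hj : j < 1024) (e : n * f i * n⁻¹ = f j) :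
    pf j = 0 ↔ pf i = 0 := by
  rw [← not_iff_not, ← Ne, ← Ne, ← h.np hi, ← h.np hj]
  exact ⟨fun ⟨k, hk, l⟩ => ⟨n⁻¹ * k, mul_mem (inv_mem hn) hk, by rw [cjcj, l, cj_inv e]⟩,
    fun ⟨k, hk, l⟩ => ⟨n * k, mul_mem hn hk, by rw [cjcj, l, e]⟩⟩

theorem exists_pm {n : G} (hn : n ∈ normalizer (A : Set G)) : ∃ π, Pm π ∧ ∀ i < 1024, n * f i * n⁻¹ = f (π i) := by
  choose! π h1 h2 using fun i (hi : i < 1024) => (h.mem _).mp ((mem_normalizer_iff.mp hn _).mp (h.f_mem hi))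
  refine ⟨π, ⟨h1, fun i hi j hj => h.inj _ (h1 _ (Nat.xor_lt_two_pow (n := 10) hi hj)) _
    (Nat.xor_lt_two_pow (n := 10) (h1 i hi) (h1 j hj)) ?_, fun i hi => h.pure hn hi (h1 i hi) (h2 i hi).symm⟩,
    fun i hi => (h2 i hi).symm⟩
  rw [h.mul _ (h1 i hi) _ (h1 j hj), h2 i hi, h2 j hj, h2 _ (Nat.xor_lt_two_pow (n := 10) hi hj), h.mul i hi j hj, conj_mul]

theorem pure_orb : ∃ n ∈ normalizer (A : Set G), n * f 1 * n⁻¹ = f 64 := by_contra fun c => by
  obtain ⟨n, hn, e⟩ := (h.main.1 72 (by simp)).mpr (by simp)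
  obtain ⟨π, p, l⟩ := h.exists_pm hn
  have k : ∀ i < 64, i ≠ 0 → pf i = 0 → π i < 64 := fun i hi z a => by_contra fun b => c (by
    have i1 : i < 1024 := by omega
    have := (h.orb_iff h.kn i1 z (a := f 1)).mpr ⟨1, one_mem _, by simp [rp_eq, hi, a]⟩
    obtain ⟨m, hm, g⟩ := this
    have := (h.orb_iff h.kn (p.lt i i1) (by omega) (a := f 1)).mp ⟨n * m, mul_mem hn hm, by rw [cjcj, g, l i i1]⟩
    rwa [rp_eq, if_neg b, if_pos ((p.pure i i1).mpr a)] at this)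
  have a1 := p.add 4 (by norm_num) 8 (by norm_num)
  rw [show 4 ^^^ 8 = 12 from rfl, h.inj _ (p.lt 12 (by norm_num)) 72 (by norm_num) ((l 12 (by norm_num)).symm.trans e)] at a1
  exact absurd (a1 ▸ Nat.xor_lt_two_pow (n := 6) (k 4 (by norm_num) (by norm_num) (by decide +kernel))
    (k 8 (by norm_num) (by norm_num) (by decide +kernel))) (by norm_num)

theorem pr {i : ℕ} (hi : i < 1024) (z : i ≠ 0) (e : pf i = 0) : ∃ n ∈ normalizer (A : Set G), n * f 1 * n⁻¹ = f i := by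
  rw [h.orb_iff h.kn hi z, rp_eq, if_pos e, if_pos e]
  split_ifs
  exacts [⟨1, one_mem _, by simp⟩, h.pure_orb]

theorem orbits : ∃ a b : G, a ∈ A ∧ b ∈ A ∧ Set.ncard {v : G | ∃ n ∈ normalizer (A : Set G), n * a * n⁻¹ = v} = 155 ∧
    Set.ncard {v : G | ∃ n ∈ normalizer (A : Set G), n * b * n⁻¹ = v} = 868 := by
  refine ⟨f 1, f 12, h.f_mem (by norm_num), h.f_mem (by norm_num),
    (h.orb_card h.kn le_rfl (by norm_num) (by norm_num) (l := [1, 64]) ?_).trans (by decide +kernel),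
    (h.orb_card h.kn le_rfl (by norm_num) (by norm_num) h.main.1).trans (by decide +kernel)⟩
  have k : ∀ c < 1024, pf c ≠ 0 → ¬ ∃ n ∈ normalizer (A : Set G), n * f 1 * n⁻¹ = f c := fun c hc l ⟨n, hn, e⟩ =>
    l ((h.pure hn (by norm_num) hc e).mpr (by decide +kernel))
  simp only [List.forall_mem_cons]
  exact ⟨iff_of_true ⟨1, one_mem _, by simp⟩ (by simp), iff_of_false (k _ (by norm_num) (by decide +kernel)) (by simp),
    iff_of_true h.pure_orb (by simp), iff_of_false (k _ (by norm_num) (by decide +kernel)) (by simp), by simp⟩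

theorem irr {W : Subgroup G} (hW : W ≤ A) (hn : normalizer (A : Set G) ≤ normalizer (W : Set G)) : W = ⊥ ∨ W = A := by
  refine or_iff_not_imp_left.mpr fun n => le_antisymm hW ?_
  have k : ∀ {a b}, (∃ n ∈ normalizer (A : Set G), n * a * n⁻¹ = b) → (a ∈ W ↔ b ∈ W) := fun ⟨n, h1, e⟩ =>
    e ▸ mem_normalizer_iff.mp (hn h1) _
  obtain ⟨w, n⟩ := ne_bot_iff_exists_ne_one.mp n
  obtain ⟨i, hi, e⟩ := (h.mem _).mp (hW w.2)
  have a1 : f 1 ∈ W := by
    by_cases c : pf i = 0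
    · exact (k (h.pr hi (fun z => n (Subtype.ext (by rw [← e, z, h.zero]; rfl))) c)).mpr (e ▸ w.2)
    have := (k ((h.np hi).mpr c)).mpr (e ▸ w.2)
    rw [show 1 = 12 ^^^ 13 from rfl, h.mul _ (by norm_num) _ (by norm_num)]
    exact mul_mem this ((k ((h.np (by norm_num)).mpr (by decide +kernel))).mp this)
  intro a ha
  obtain ⟨j, hj, rfl⟩ := (h.mem _).mp ha
  have := (xc_ind (P := fun m => m < 1024 ∧ f m ∈ W) ⟨by norm_num, h.zero ▸ one_mem _⟩
    (fun a b ha hb => ⟨Nat.xor_lt_two_pow (n := 10) ha.1 hb.1, h.mul a ha.1 b hb.1 ▸ mul_mem ha.2 hb.2⟩)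
    (rows := bit) (k := 10) (fun b hb => ⟨(pf_bit b hb).2.1,
      (k (h.pr (pf_bit b hb).2.1 (pf_bit b hb).2.2 (pf_bit b hb).1)).mp a1⟩) j).2
  rwa [xc_bit_self, Nat.mod_eq_of_lt (show j < 2 ^ 10 from hj)] at this

theorem exists_hom : ∃ μ : normalizer (A : Set G) →* L5, μ.ker = A.subgroupOf _ := by
  have k : ∀ n : normalizer (A : Set G), ∃ X : Matrix (Fin 5) (Fin 5) (ZMod 2), ∀ i < 1024, ∀ j < 1024,
      n * f i * (n : G)⁻¹ = f j → X *ᵥ vec (pf i) = vec (pf j) := fun n => by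
    obtain ⟨π, p, l⟩ := h.exists_pm n.2
    obtain ⟨X, hX⟩ := p.exists_mat
    exact ⟨X, fun i hi j hj e => h.inj _ (p.lt i hi) j hj ((l i hi).symm.trans e) ▸ hX i hi⟩
  choose X hX using k
  have k1 : ∀ a b, X (a * b) = X a * X b := fun a b => mat_ext fun i hi => by
    obtain ⟨π, p, l⟩ := h.exists_pm a.2
    obtain ⟨σ, q, m⟩ := h.exists_pm b.2
    rw [← mulVec_mulVec, hX b i hi _ (q.lt i hi) (m i hi), hX a _ (q.lt i hi) _ (p.lt _ (q.lt i hi)) (l _ (q.lt i hi)),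
      hX (a * b) i hi _ (p.lt _ (q.lt i hi)) (by rw [coe_mul, cjcj, m i hi, l _ (q.lt i hi)])]
  have k2 : ∀ a : normalizer (A : Set G), (a : G) ∈ A → X a = 1 := fun a ha => mat_ext fun i hi => by
    rw [one_mulVec, hX a i hi i hi (mul_inv_eq_iff_eq_mul.mpr (H11.comm_of_sq_eq_one (fun _ => h.sq) ha (h.f_mem hi)))]
  have k3 : ∀ a, (X a).det = 1 := fun a => (by decide : ∀ a b : ZMod 2, a * b = 1 → a = 1) _ (X a⁻¹).det (by
    rw [← det_mul, ← k1, mul_inv_cancel, k2 1 (one_mem _), det_one])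
  refine ⟨MonoidHom.mk' (fun a => ⟨X a, k3 a⟩) fun a b => Subtype.ext (k1 a b), Subgroup.ext fun a =>
    ⟨fun e => h.cent fun b hb => ?_, fun e => Subtype.ext (k2 a e)⟩⟩
  obtain ⟨i, hi, rfl⟩ := (h.mem _).mp hb
  obtain ⟨π, p, l⟩ := h.exists_pm a.2
  have := l i hi
  rw [p.eq_id (fun j hj => vec_inj _ (pf_lt _) _ (pf_lt _) (by
    rw [← hX a j hj _ (p.lt j hj) (l j hj), show X a = 1 from congrArg Subtype.val e, one_mulVec]))
    (fun j hj z => h.inj j hj 0 (by norm_num) ((conj_eq_one_iff.mp ((l j hj).trans (z ▸ h.zero))).trans h.zero.symm)) hi] at this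
  exact (mul_inv_eq_iff_eq_mul.mp this).symm

theorem compl : ∃ B : Subgroup G, B ≤ normalizer (A : Set G) ∧ B ⊓ A = ⊥ ∧ B ⊔ A = normalizer (A : Set G) ∧ Nonempty (B ≃* L5) := by
  obtain ⟨μ, hk⟩ := h.exists_hom
  set K' := K.subgroupOf (normalizer (A : Set G))
  have h5 : K' ⊓ μ.ker = ⊥ := by
    rw [hk]
    refine (comap_inf _ _ _).symm.trans ?_
    rw [h.ka]; exact bot_subgroupOf _
  have h6 : Nat.card μ.ker = 1024 := by rw [hk, Nat.card_congr (subgroupOfEquivOfLe le_normalizer).toEquiv, h.cardA]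
  have a1 := card_map_mul_card_inf_ker μ K'
  rw [h5, card_bot, mul_one, Nat.card_congr (subgroupOfEquivOfLe h.kn).toEquiv, h.card] at a1
  have h7 : Function.Surjective μ ∧ Nat.card L5 = 9999360 := by
    have b1 := card_map_mul_card_inf_ker μ (μ.ker ⊔ K')
    have b2 := card_le_of_le (map_mono (f := μ) (le_sup_right (a := μ.ker) (b := K')))
    have b3 : Nat.card ↥(μ.ker ⊔ K') ≤ Nat.card ↥(normalizer (A : Set G) ⊓ M) := by
      rw [← Nat.card_congr (subgroupOfEquivOfLe (inf_le_left : normalizer (A : Set G) ⊓ M ≤ _)).toEquiv]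
      exact card_le_of_le (sup_le (hk ▸ fun x hx => ⟨x.2, h.am hx⟩) fun x hx => ⟨x.2, h.km hx⟩)
    have b4 := μ.ker.card_mul_index
    have b5 := card_le_card_group μ.range
    have b6 := card_L5_le
    rw [inf_eq_right.mpr le_sup_left, h6] at b1
    rw [index_ker, h6, h.main.2] at b4
    exact ⟨MonoidHom.range_eq_top.mp (eq_top_of_le_card _ (by omega)), by omega⟩
  haveI : IsMulCommutative μ.ker := ⟨⟨fun a b => Subtype.ext (Subtype.ext
    (H11.comm_of_sq_eq_one (fun _ => h.sq) (hk.le a.2) (hk.le b.2)))⟩⟩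
  obtain ⟨B, hB⟩ := H1.gaschutz_exists (K := μ.ker) (A := K') (by
    have a2 := index_map_eq (μ.ker ⊔ K') h7.1 le_sup_left
    have a3 := ((μ.ker ⊔ K').map μ).card_mul_index
    obtain ⟨c, a4⟩ := a1 ▸ card_dvd_of_le (map_mono (f := μ) (le_sup_right (a := μ.ker) (b := K')))
    rw [h6, ← a2]
    refine ((Nat.Prime.coprime_iff_not_dvd Nat.prime_two).mpr fun ⟨e, f⟩ => ?_).pow_left 10
    rw [a4, f, h7.2, mul_mul_mul_comm] at a3
    omega) h5 rfl
  have h8 := (map_subgroupOf_eq_of_le (le_normalizer (H := A))).symm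
  refine ⟨B.map (Subgroup.subtype _), map_subtype_le _, (congrArg (_ ⊓ ·) h8).trans ?_, (congrArg (_ ⊔ ·) h8).trans ?_,
    ⟨(B.equivMapOfInjective _ (subtype_injective _)).symm.trans (MulEquiv.ofBijective (μ.comp B.subtype)
      ⟨(injective_iff_map_eq_one _).mpr fun g e => Subtype.ext (hB.disjoint.le_bot ⟨e, g.2⟩), fun g => ?_⟩)⟩⟩
  · rw [← map_inf_eq _ _ _ (subtype_injective _), ← hk, hB.disjoint.symm.eq_bot, Subgroup.map_bot]
  · rw [← Subgroup.map_sup, ← hk, hB.symm.sup_eq_top, ← MonoidHom.range_eq_map, range_subtype]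
  · obtain ⟨n, rfl⟩ := h7.1 g
    obtain ⟨⟨a, b⟩, e⟩ := hB.2 n
    exact ⟨b, by rw [← show (a : normalizer (A : Set G)) * b = n from e, map_mul, show μ a = 1 from a.2, one_mul]; rfl⟩

omit [Finite G] in
theorem conj (g : G) : Ten (MulAut.conj g • A) (MulAut.conj g • K) (MulAut.conj g • M) fun i => g * f i * g⁻¹ := by
  have e : normalizer ((MulAut.conj g • A : Subgroup G) : Set G) = MulAut.conj g • normalizer (A : Set G) :=
    (map_equiv_normalizer_eq A (MulAut.conj g)).symm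
  have l : ∀ {c x : G}, c * (g * x * g⁻¹) = g * x * g⁻¹ * c → g⁻¹ * c * g * x = x * (g⁻¹ * c * g) := fun {c x} e => by
    calc _ = g⁻¹ * (c * (g * x * g⁻¹)) * g := by group
      _ = _ := by rw [e]; group
  refine ⟨fun i hi j hj => by rw [h.mul i hi j hj, conj_mul], fun i hi j hj e => h.inj i hi j hj (by simpa using e),
    fun a => ?_, fun c hc => mem_conj_smul.mpr (h.cent fun a ha => (l (hc _ (conj_mem_conj_smul.mpr ha)).symm).symm),
    e ▸ conj_smul_mono g h.kn, conj_smul_mono g h.km, conj_smul_mono g h.am, by rw [← smul_inf, h.ka, smul_bot],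
    by rw [card_conj_smul, h.card], fun i hi n => ?_, fun c hc => mem_conj_smul.mpr (h.cm (mem_centralizer_singleton_iff.mpr
      (l (mem_centralizer_singleton_iff.mp hc)))), fun n hn i hi k => h.low _ (mem_conj_smul.mp hn) i hi ?_,
    fun c => h.nc (((isConj_iff.mpr ⟨g, rfl⟩).trans c).trans (isConj_iff.mpr ⟨g, rfl⟩).symm), ?_⟩
  · rw [mem_conj_smul, h.mem]
    exact exists_congr fun i => and_congr_right fun _ => ⟨fun e => by rw [e]; group, fun e => by rw [← e]; group⟩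
  · obtain ⟨k, hk, e⟩ := h.orb i hi n
    exact ⟨_, conj_mem_conj_smul.mpr hk, by rw [← e]; group⟩
  · calc _ = g⁻¹ * (n * (g * f 12 * g⁻¹) * n⁻¹) * g := by group
      _ = _ := by rw [k]; group
  · obtain ⟨y, y1, y2⟩ := h.ex
    exact ⟨_, e ▸ conj_mem_conj_smul.mpr y1, mt conj_mem_conj_smul.mp y2⟩

end Ten

end Cfsg.Agent.J4B
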